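import Cfsg.Agent.BLP.Spec
import Cfsg.Agent.H49.Core

/-!
# Faithful irreducible characters of degree less than twice a prime (helper78)
-/

set_option autoImplicit false

namespace Cfsg.Agent.BLP

open Module Cfsg Cfsg.Agent.CharBase Cfsg.Agent.Char

open scoped ComplexConjugate BigOperators commutatorElement

universe u

/-- the `p`-part of an abelian normal subgroup -/
theorem not_dvd_index_pCore {G : Type u} [Group G] [Finite G] {p : ℕ} [hp : Fact p.Prime]
    (K : Subgroup G) [hK : K.Normal] (hab : ∀ x ∈ K, ∀ y ∈ K, x * y = y * x)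
    (h : ¬ p ^ 2 ∣ K.index) : ¬ p ^ 2 ∣ (Cfsg.pCore p G).index := by
  classical
  have hpp : p.Prime := hp.out
  let T : Subgroup G :=
    { carrier := {x | x ∈ K ∧ ∃ k : ℕ, x ^ p ^ k = 1}
      one_mem' := ⟨K.one_mem, 0, one_pow _⟩
      mul_mem' := by
        rintro x y ⟨hx, i, hi⟩ ⟨hy, j, hj⟩
        refine ⟨K.mul_mem hx hy, i + j, ?_⟩
        have hc : Commute x y := hab x hx y hy
        rw [hc.mul_pow, pow_add, pow_mul, hi, one_pow, mul_comm (p ^ i), pow_mul, hj, one_pow, one_mul]
      inv_mem' := by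
        rintro x ⟨hx, i, hi⟩
        exact ⟨K.inv_mem hx, i, by rw [inv_pow, hi, inv_one]⟩ }
  have hTK : T ≤ K := fun x hx => hx.1
  have hTn : T.Normal := ⟨fun x hx g => by
    obtain ⟨hx, i, hi⟩ := hx
    exact ⟨hK.conj_mem x hx g, i, by rw [conj_pow, hi, mul_one, mul_inv_cancel]⟩⟩
  have hTp : IsPGroup p T := by
    intro x
    obtain ⟨hx, i, hi⟩ := x.2
    exact ⟨i, Subtype.ext (by simpa using hi)⟩
  have hTO : T ≤ Cfsg.pCore p G := Cfsg.Agent.H49.le_pCore hTn hTp
  intro hdvd
  have h1 : p ^ 2 ∣ T.index := hdvd.trans (Subgroup.index_dvd_of_le hTO)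
  rw [← Subgroup.relIndex_mul_index hTK] at h1
  have h2 : ¬ p ∣ T.relIndex K := by
    intro h3
    let S : Sylow p K := default
    have h4 : (S : Subgroup K) ≤ T.subgroupOf K := by
      intro x hx
      rw [Subgroup.mem_subgroupOf]
      obtain ⟨i, hi⟩ := S.2 ⟨x, hx⟩
      refine ⟨x.2, i, ?_⟩
      have := congrArg (fun y : S => ((y : K) : G)) hi
      simpa using this
    exact S.not_dvd_index (h3.trans (Subgroup.index_dvd_of_le h4))
  apply h
  exact Nat.Coprime.dvd_of_dvd_mul_left
    (((Nat.Prime.coprime_iff_not_dvd hpp).mpr h2).pow_left 2) h1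

theorem main {G : Type u} [Group G] [Finite G] {χ : G → ℂ} (hχ : IsIrrCharacter G χ)
    (hfaith : ∀ g : G, χ g = χ 1 → g = 1) (n : ℕ) (hn : χ 1 = n) (p : ℕ) [hp : Fact p.Prime]
    (h7 : 7 ≤ p) (hn2 : n < 2 * p) (hnp : n ≠ p) (P : Subgroup G) (hP : IsPGroup p P)
    (hnab : ∃ x ∈ P, ∃ y ∈ P, x * y ≠ y * x) : ¬ p ^ 2 ∣ (Cfsg.pCore p G).index := by
  classical
  have := Fintype.ofFinite G
  have hpp : p.Prime := hp.out
  obtain ⟨hpn, z, ω₀, hzp, hω₀p, hω₀1, hz⟩ := exists_central (isCharacter_of_isIrr hχ) hfaith n hn p hn2 P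
    hP hnab
  have hpn' : p < n := lt_of_le_of_ne hpn (Ne.symm hnp)
  -- the good root of unity
  set ω : ℂ := Complex.exp (Complex.I * ((2 * Real.pi / p : ℝ) : ℂ)) with hω
  have hp0 : (p : ℝ) ≠ 0 := by exact_mod_cast hpp.ne_zero
  have hp0c : (p : ℂ) ≠ 0 := by exact_mod_cast hpp.ne_zero
  have hωprim : IsPrimitiveRoot ω p := by
    have h1 := Complex.isPrimitiveRoot_exp p hpp.ne_zero
    have h2 : ω = Complex.exp (2 * Real.pi * Complex.I / p) := by
      rw [hω]; congr 1; push_cast; ring
    rw [h2]; exact h1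
  have hωp : ω ^ p = 1 := hωprim.pow_eq_one
  have hω1 : ω ≠ 1 := hωprim.ne_one hpp.one_lt
  have hω2 : ‖ω - 1‖ < 1 := by
    refine (Real.norm_exp_I_mul_ofReal_sub_one_le (x := 2 * Real.pi / p)).trans_lt ?_
    rw [Real.norm_eq_abs, abs_of_nonneg (by positivity)]
    have h7' : (7 : ℝ) ≤ p := by exact_mod_cast h7
    rw [div_lt_one (by linarith)]
    have := Real.pi_lt_d2
    linarith
  have hω₀prim : IsPrimitiveRoot ω₀ p := by
    rw [IsPrimitiveRoot.iff_orderOf]
    exact orderOf_eq_prime hω₀p hω₀1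
  obtain ⟨j, -, hj⟩ := hω₀prim.eq_pow_of_pow_eq_one hωp
  set y : G := z ^ j with hy
  have hyp : y ^ p = 1 := by rw [hy, ← pow_mul, mul_comm, pow_mul, hzp, one_pow]
  have hyχ : ∀ k : ℕ, χ (y ^ k) = p * ω ^ k + (n - p : ℕ) := by
    intro k
    rw [hy, ← pow_mul, hz, pow_mul, hj]
  -- the representation
  obtain ⟨m, ρ, hρirr, hρ⟩ := id hχ
  have hm : m = n := by
    have h1 : ρ.character 1 = (m : ℂ) := by simp
    rw [hρ, hn] at h1
    exact_mod_cast h1.symm
  subst hm
  have hinj : Function.Injective ρ := by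
    rw [← MonoidHom.ker_eq_bot_iff, eq_bot_iff]
    intro g hg
    rw [Subgroup.mem_bot]
    apply hfaith
    rw [MonoidHom.mem_ker] at hg
    rw [← hρ]
    simp only [Representation.character]
    rw [hg, MonoidHom.map_one ρ]
  obtain ⟨A, hAn, hAab, hyA⟩ := exists_abelian_normal_mem ρ hinj y hpp.pos hyp hωp hω1 hω2 (m - p)
    (by intro k; rw [hρ]; exact hyχ k)
  have := Fintype.ofFinite A
  obtain ⟨ι, _, b, μ, hcardι', hμ⟩ := exists_basis ρ A hAab
  have hcardι : Fintype.card ι = m := by rw [hcardι']; simp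
  have hb0 : ∀ j, b j ≠ 0 := fun j => b.ne_zero j
  have hμ1 : ∀ j, μ j 1 = 1 := by
    intro j
    have h1 := hμ j 1
    rw [OneMemClass.coe_one, map_one, Module.End.one_apply] at h1
    have h2 : (μ j 1 - 1) • b j = 0 := by rw [sub_smul, ← h1, one_smul, sub_self]
    exact sub_eq_zero.mp ((smul_eq_zero.mp h2).resolve_right (hb0 j))
  have hμmul : ∀ j a a', μ j (a * a') = μ j a * μ j a' := by
    intro j a a'
    have h1 := hμ j (a * a')
    rw [Subgroup.coe_mul, map_mul, Module.End.mul_apply, hμ, map_smul, hμ, smul_smul] at h1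
    have h2 : (μ j a' * μ j a - μ j (a * a')) • b j = 0 := by rw [sub_smul, ← h1, sub_self]
    have h3 := sub_eq_zero.mp ((smul_eq_zero.mp h2).resolve_right (hb0 j))
    rw [← h3, mul_comm]
  let μh : ι → (A →* ℂ) := fun j =>
    { toFun := μ j, map_one' := hμ1 j, map_mul' := hμmul j }
  have hμirr : ∀ j, IsIrrCharacter A (μ j) := fun j => isIrrCharacter_of_hom (μh j)
  have hres : (fun a : A => χ a) = ∑ j, μ j := by
    funext a
    rw [Finset.sum_apply, ← hρ]
    exact character_of_basis ρ b (a : G) (fun j => μ j a) (fun j => hμ j a)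
  have hinner : ∀ ψ : A → ℂ, IsIrrCharacter A ψ →
      classInner (fun a : A => χ a) ψ = (Finset.univ.filter fun j => μ j = ψ).card := by
    intro ψ hψ
    rw [hres, classInner_sum_left]
    have h1 : ∀ j, classInner (μ j) ψ = if μ j = ψ then (1 : ℂ) else 0 := by
      intro j
      split_ifs with h
      · rw [h]; exact classInner_irr_self ⟨ψ, hψ⟩
      · exact classInner_irr_of_ne (χ := ⟨μ j, hμirr j⟩) (ψ := ⟨ψ, hψ⟩)
          (fun h' => h (congrArg Subtype.val h'))
    simp_rw [h1]
    rw [Finset.sum_boole]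
  have hcl := isClassFunction_of_isCharacter (isCharacter_of_isIrr hχ)
  have hpos : ∀ j, (Finset.univ.filter fun i => μ i = μ j).card ≠ 0 := by
    intro j
    rw [Finset.card_ne_zero]
    exact ⟨j, by simp⟩
  have hne0 : ∀ j, classInner (fun a : A => χ a) (μ j) ≠ 0 := by
    intro j
    rw [hinner _ (hμirr j)]
    exact_mod_cast hpos j
  have hcardeq : ∀ i j, (Finset.univ.filter fun k => μ k = μ i).card
      = (Finset.univ.filter fun k => μ k = μ j).card := by
    intro i j
    obtain ⟨g, hg⟩ := exists_conj_of_constituents A hχ (hμirr i) (hμirr j) (hne0 i) (hne0 j)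
    have h1 := classInner_restrict_cj A hcl (μ i) g
    rw [hg, hinner _ (hμirr j), hinner _ (hμirr i)] at h1
    exact_mod_cast h1.symm
  -- the set of eigenvectors of `y` with eigenvalue `ω`
  set yA : A := ⟨y, hyA⟩ with hyAdef
  have hyroot : ∀ j, μ j yA ^ p = 1 := by
    intro j
    have h1 : (μh j) (yA ^ p) = 1 := by
      have : yA ^ p = 1 := Subtype.ext (by simpa [hyAdef] using hyp)
      rw [this, map_one]
    rw [map_pow] at h1
    exact h1
  have hF := (fourier (fun j => μ j yA) hpp.pos hyroot hωp hω1 (m - p) (by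
    intro k
    rw [← hyχ k]
    have h1 := congrFun hres (yA ^ k)
    rw [Finset.sum_apply] at h1
    have h2 : χ ((yA ^ k : A) : G) = χ (y ^ k) := by rw [Subgroup.coe_pow]
    rw [← h2]
    refine Eq.trans ?_ h1.symm
    refine Finset.sum_congr rfl fun j _ => ?_
    exact (map_pow (μh j) yA k).symm)).2
  obtain ⟨j0⟩ : Nonempty ι := by
    rw [← Fintype.card_pos_iff, hcardι]; omega
  set e := (Finset.univ.filter fun k => μ k = μ j0).card with he
  have hdvd : ∀ s : Finset ι, (∀ i j, μ i = μ j → i ∈ s → j ∈ s) → e ∣ s.card := by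
    intro s hs
    rw [Finset.card_eq_sum_card_image μ s]
    apply Finset.dvd_sum
    intro ψ hψ
    obtain ⟨i, hi, rfl⟩ := Finset.mem_image.mp hψ
    have h1 : (s.filter fun k => μ k = μ i) = (Finset.univ.filter fun k => μ k = μ i) := by
      ext k
      simp only [Finset.mem_filter, Finset.mem_univ, true_and, and_iff_right_iff_imp]
      intro hk
      exact hs i k hk.symm hi
    rw [h1, hcardeq i j0]
  have he1 : e ∣ p := by
    have h1 := hdvd (Finset.univ.filter fun j => μ j yA = ω) (by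
      intro i j hij hi
      simp only [Finset.mem_filter, Finset.mem_univ, true_and] at hi ⊢
      rw [← hij]; exact hi)
    rwa [← Fintype.card_subtype, ← Nat.card_eq_fintype_card, hF] at h1
  have he2 : e ∣ m := by
    have h1 := hdvd Finset.univ (fun _ _ _ _ => Finset.mem_univ _)
    rwa [Finset.card_univ, hcardι] at h1
  have he3 : e = 1 := by
    rcases (Nat.dvd_prime hpp).mp he1 with h | h
    · exact h
    · exfalso
      rw [h] at he2
      obtain ⟨c, hc⟩ := he2
      have h1 : 1 < c := by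
        by_contra hcon
        have : c ≤ 1 := by omega
        have : p * c ≤ p * 1 := Nat.mul_le_mul_left _ this
        omega
      have : p * 2 ≤ p * c := Nat.mul_le_mul_left _ h1
      omega
  have hμinj : Function.Injective μ := by
    intro i j hij
    have h1 : (Finset.univ.filter fun k => μ k = μ i).card = 1 := by
      rw [hcardeq i j0, ← he, he3]
    obtain ⟨a, ha⟩ := Finset.card_eq_one.mp h1
    have h2 : i ∈ (Finset.univ.filter fun k => μ k = μ i) := by simp
    have h3 : j ∈ (Finset.univ.filter fun k => μ k = μ i) := by simp [hij]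
    rw [ha, Finset.mem_singleton] at h2 h3
    rw [h2, h3]
  -- the action of `G` on the weights
  have hcj : ∀ (g : G) (j : ι), cj A g (μ j) ∈ Set.range μ := by
    intro g j
    have h1 := classInner_restrict_cj A hcl (μ j) g
    have h2 : classInner (fun a : A => χ a) (cj A g (μ j)) ≠ 0 := by rw [h1]; exact hne0 j
    rw [hinner _ (isIrrCharacter_cj A g (hμirr j))] at h2
    have h3 : (Finset.univ.filter fun i => μ i = cj A g (μ j)).card ≠ 0 := by exact_mod_cast h2
    obtain ⟨i, hi⟩ := Finset.card_ne_zero.mp h3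
    exact ⟨i, (Finset.mem_filter.mp hi).2⟩
  let act : MulAction G (Set.range μ) :=
    { smul := fun g ψ => ⟨cj A g⁻¹ ψ.1, by
        obtain ⟨j, hj⟩ := ψ.2
        rw [← hj]; exact hcj g⁻¹ j⟩
      one_smul := fun ψ => Subtype.ext (by
        change cj A (1 : G)⁻¹ ψ.1 = ψ.1
        rw [inv_one, cj_one])
      mul_smul := fun g h ψ => Subtype.ext (by
        change cj A (g * h)⁻¹ ψ.1 = cj A g⁻¹ (cj A h⁻¹ ψ.1)
        rw [mul_inv_rev, cj_mul]) }
  set f : G →* Equiv.Perm (Set.range μ) := MulAction.toPermHom G (Set.range μ) with hf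
  have hKidx : f.ker.index ∣ Nat.factorial m := by
    rw [Subgroup.index_ker]
    have h1 := Subgroup.card_subgroup_dvd_card f.range
    have h2 : Nat.card (Equiv.Perm (Set.range μ)) = Nat.factorial m := by
      rw [Nat.card_perm, Nat.card_congr (Equiv.ofInjective μ hμinj).symm, Nat.card_eq_fintype_card,
        hcardι]
    rwa [h2] at h1
  have hKfix : ∀ g ∈ f.ker, ∀ j, cj A g⁻¹ (μ j) = μ j := by
    intro g hg j
    have h1 : f g ⟨μ j, j, rfl⟩ = ⟨μ j, j, rfl⟩ := by
      rw [MonoidHom.mem_ker.mp hg]; rfl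
    exact congrArg Subtype.val h1
  have hdiag : ∀ g ∈ f.ker, ∀ j, ∃ c : ℂ, ρ g (b j) = c • b j := by
    intro g hg j
    refine ⟨b.repr (ρ g (b j)) j, ?_⟩
    have h1 : ∀ a : A, ρ (a : G) (ρ g (b j)) = μ j a • ρ g (b j) := by
      intro a
      have h2 := congrFun (hKfix g hg j) a
      rw [cj_apply] at h2
      have h3 : ρ (a : G) (ρ g (b j)) = ρ g (ρ (g⁻¹ * a * g⁻¹⁻¹) (b j)) := by
        rw [← Module.End.mul_apply, ← Module.End.mul_apply, ← map_mul, ← map_mul]
        congr 2; group
      have h4 := hμ j ⟨g⁻¹ * a * g⁻¹⁻¹, hAn.conj_mem (a : G) a.2 g⁻¹⟩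
      simp only at h4
      rw [h3, h4, map_smul, h2]
    apply b.ext_elem
    intro i
    rw [map_smul, Finsupp.smul_apply, Basis.repr_self, smul_eq_mul]
    by_cases hij : i = j
    · subst hij; rw [Finsupp.single_eq_same, mul_one]
    · rw [Finsupp.single_eq_of_ne (by exact hij), mul_zero]
      by_contra hne
      apply hij
      apply hμinj
      funext a
      have h5 : b.repr (ρ (a : G) (ρ g (b j))) i = μ i a * b.repr (ρ g (b j)) i := by
        conv_lhs => rw [← b.sum_repr (ρ g (b j))]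
        rw [map_sum, map_sum, Finsupp.finsetSum_apply, Finset.sum_eq_single i]
        · rw [map_smul, map_smul, hμ, map_smul, Finsupp.smul_apply, Finsupp.smul_apply, Basis.repr_self,
            Finsupp.single_eq_same, smul_eq_mul, smul_eq_mul, mul_one, mul_comm]
        · intro k _ hk
          rw [map_smul, map_smul, hμ, map_smul, Finsupp.smul_apply, Finsupp.smul_apply, Basis.repr_self,
            Finsupp.single_eq_of_ne (Ne.symm hk), smul_zero, smul_zero]
        · intro h; exact absurd (Finset.mem_univ _) h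
      rw [h1, map_smul, Finsupp.smul_apply, smul_eq_mul] at h5
      exact (mul_right_cancel₀ hne h5).symm
  have hKab : ∀ x ∈ f.ker, ∀ y ∈ f.ker, x * y = y * x := by
    intro g hg h hh
    apply hinj
    apply b.ext
    intro j
    obtain ⟨c, hc⟩ := hdiag g hg j
    obtain ⟨d, hd⟩ := hdiag h hh j
    rw [map_mul, map_mul, Module.End.mul_apply, Module.End.mul_apply, hd, hc, map_smul, map_smul, hc, hd,
      smul_smul, smul_smul, mul_comm]
  apply not_dvd_index_pCore f.ker hKab
  intro h1
  have h2 : p ^ 2 ∣ Nat.factorial m := h1.trans hKidx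
  have hlog : Nat.log p m < 2 := by
    apply Nat.log_lt_of_lt_pow (by omega)
    have := hpp.two_le
    nlinarith
  rw [hpp.pow_dvd_factorial_iff hlog] at h2
  have h3 : ∑ i ∈ Finset.Ico 1 2, m / p ^ i = m / p := by simp
  rw [h3] at h2
  have h4 : m / p < 2 := by
    rw [Nat.div_lt_iff_lt_mul hpp.pos]
    omega
  omega

end Cfsg.Agent.BLP
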