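import Cfsg.Agent.Lin.Jordan
import Cfsg.Agent.H80.ClassTwo
import Cfsg.Agent.Char.Clifford
import Cfsg.Agent.H63.PG
import Cfsg.Agent.H79.LinChar

/-!
# Faithful characters of degree less than twice a prime: spectrum of central commutators (helper78)
-/

set_option autoImplicit false

namespace Cfsg.Agent.BLP

open Module Cfsg Cfsg.Agent.CharBase Cfsg.Agent.Char Cfsg.Agent.H80

open scoped ComplexConjugate BigOperators commutatorElement

universe u

theorem geom {p : ℕ} {x : ℂ} (hx : x ^ p = 1) :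
    ∑ k ∈ Finset.range p, x ^ k = if x = 1 then (p : ℂ) else 0 := by
  split_ifs with h
  · subst h; simp
  · have h1 := mul_geom_sum x p
    rw [hx, sub_self] at h1
    exact (mul_eq_zero.mp h1).resolve_left (sub_ne_zero.mpr h)

theorem fourier {ι : Type*} [Fintype ι] (μ : ι → ℂ) {p : ℕ} (hp : 0 < p) (hμ : ∀ j, μ j ^ p = 1)
    {ω : ℂ} (hω : ω ^ p = 1) (hω1 : ω ≠ 1) (m : ℕ)
    (h : ∀ k : ℕ, ∑ j, μ j ^ k = p * ω ^ k + m) :
    (∀ j, μ j = 1 ∨ μ j = ω) ∧ Nat.card {j // μ j = ω} = p := by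
  classical
  have hpc : (p : ℂ) ≠ 0 := by exact_mod_cast hp.ne'
  have key : ∀ η : ℂ, η ^ p = 1 → (Nat.card {j // μ j = η} : ℂ) * p =
      (if ω = η then (p : ℂ) * p else 0) + (if η = 1 then (m : ℂ) * p else 0) := by
    intro η hη
    have hη0 : η ≠ 0 := by
      rintro rfl
      rw [zero_pow hp.ne'] at hη
      exact zero_ne_one hη
    have e1 : ∑ k ∈ Finset.range p, (η⁻¹) ^ k * ∑ j, μ j ^ k = (Nat.card {j // μ j = η} : ℂ) * p := by
      simp_rw [Finset.mul_sum]
      rw [Finset.sum_comm]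
      have : ∀ j, ∑ k ∈ Finset.range p, (η⁻¹) ^ k * μ j ^ k = if μ j = η then (p : ℂ) else 0 := by
        intro j
        have h1 : (η⁻¹ * μ j) ^ p = 1 := by rw [mul_pow, inv_pow, hη, hμ j]; simp
        simp_rw [← mul_pow]
        rw [geom h1]
        congr 1
        rw [eq_iff_iff, inv_mul_eq_one₀ hη0]
        exact eq_comm
      simp_rw [this]
      rw [Finset.sum_ite, Finset.sum_const_zero, add_zero, Finset.sum_const, nsmul_eq_mul,
        Nat.card_eq_fintype_card, Fintype.card_subtype]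
    rw [← e1]
    simp_rw [h, mul_add]
    rw [Finset.sum_add_distrib]
    congr 1
    · have h1 : (η⁻¹ * ω) ^ p = 1 := by rw [mul_pow, inv_pow, hη, hω]; simp
      have h2 : ∀ k, (η⁻¹) ^ k * ((p : ℂ) * ω ^ k) = p * (η⁻¹ * ω) ^ k := by
        intro k; rw [mul_pow]; ring
      simp_rw [h2]
      rw [← Finset.mul_sum, geom h1]
      by_cases hc : ω = η
      · rw [if_pos hc, if_pos (by rw [hc, inv_mul_cancel₀ hη0])]
      · rw [if_neg hc, if_neg (fun h3 => hc (by
          rw [inv_mul_eq_one₀ hη0] at h3; exact h3.symm)), mul_zero]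
    · have h1 : (η⁻¹) ^ p = 1 := by rw [inv_pow, hη]; simp
      rw [← Finset.sum_mul, geom h1]
      by_cases hc : η = 1
      · rw [if_pos hc, if_pos (by rw [hc, inv_one])]; ring
      · rw [if_neg hc, if_neg (fun h3 => hc (by rw [← inv_inv η, h3, inv_one])), zero_mul]
  constructor
  · intro j
    by_contra hcon
    push Not at hcon
    have h1 := key (μ j) (hμ j)
    rw [if_neg (Ne.symm hcon.2), if_neg hcon.1, add_zero] at h1
    have h2 : (Nat.card {i // μ i = μ j} : ℂ) = 0 := (mul_eq_zero.mp h1).resolve_right hpc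
    have h3 : Nat.card {i // μ i = μ j} = 0 := by exact_mod_cast h2
    have : Nonempty {i // μ i = μ j} := ⟨⟨j, rfl⟩⟩
    exact Nat.card_pos.ne' h3
  · have h1 := key ω hω
    rw [if_pos rfl, if_neg hω1, add_zero] at h1
    have h2 := mul_right_cancel₀ hpc h1
    exact_mod_cast h2

section Rep

variable {G : Type*} [Group G] [Finite G] {V : Type*} [AddCommGroup V] [Module ℂ V]
  [FiniteDimensional ℂ V] (ρ : Representation ℂ G V)

theorem exists_basis (A : Subgroup G) (hA : ∀ x ∈ A, ∀ y ∈ A, x * y = y * x) :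
    ∃ (ι : Type) (_ : Fintype ι) (b : Basis ι ℂ V) (μ : ι → A → ℂ),
      Fintype.card ι = finrank ℂ V ∧ ∀ j (a : A), ρ (a : G) (b j) = μ j a • b j := by
  obtain ⟨c, hc⟩ := Cfsg.Agent.Lin.exists_invariant_core ρ
  let _ : NormedAddCommGroup V := c.toNormedAddCommGroup
  let _ : InnerProductSpace ℂ V := InnerProductSpace.ofCore c.toCore
  obtain ⟨b, μ, hμ⟩ := Cfsg.Agent.Lin.exists_orthonormal_eigenbasis (E := V) (ι := A)
    (fun h => ρ (h : G))
    (fun i j => by
      have : Commute (i : G) (j : G) := hA i i.2 j j.2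
      exact this.map ρ)
    (fun i => ⟨orderOf (i : G), (orderOf_pos _).ne', by
      rw [← map_pow, pow_orderOf_eq_one, map_one]⟩)
    (fun i u v => hc _ u v)
  refine ⟨Fin (finrank ℂ V), inferInstance, b.toBasis, μ, Fintype.card_fin _, fun j a => ?_⟩
  rw [b.coe_toBasis]
  exact hμ j a

omit [Finite G] [FiniteDimensional ℂ V] in
theorem character_of_basis {ι : Type*} [Fintype ι] (b : Basis ι ℂ V) (g : G) (μ : ι → ℂ)
    (h : ∀ j, ρ g (b j) = μ j • b j) : ρ.character g = ∑ j, μ j := by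
  classical
  unfold Representation.character
  rw [LinearMap.trace_eq_matrix_trace ℂ b, Matrix.trace]
  refine Finset.sum_congr rfl fun j _ => ?_
  rw [Matrix.diag_apply, LinearMap.toMatrix_apply, h, map_smul, Finsupp.smul_apply,
    Basis.repr_self, Finsupp.single_eq_same, smul_eq_mul, mul_one]

theorem exists_abelian_normal_mem (hinj : Function.Injective ρ) (y : G) {p : ℕ} (hp : 0 < p)
    (hy : y ^ p = 1) {ω : ℂ} (hω : ω ^ p = 1) (hω1 : ω ≠ 1) (hω2 : ‖ω - 1‖ < 1) (m : ℕ)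
    (h : ∀ k : ℕ, ρ.character (y ^ k) = p * ω ^ k + m) :
    ∃ A : Subgroup G, A.Normal ∧ (∀ x ∈ A, ∀ y ∈ A, x * y = y * x) ∧ y ∈ A := by
  obtain ⟨c, hc⟩ := Cfsg.Agent.Lin.exists_invariant_core ρ
  let _ : NormedAddCommGroup V := c.toNormedAddCommGroup
  let _ : InnerProductSpace ℂ V := InnerProductSpace.ofCore c.toCore
  obtain ⟨A, h1, h2, h3, -⟩ := Cfsg.Agent.Lin.exists_abelian_normal_of_unitary (E := V) ρ
    (fun g u v => hc g u v) hinj
  refine ⟨A, h1, h2, h3 y ?_⟩
  obtain ⟨b, μ, hμ⟩ := Cfsg.Agent.Lin.exists_orthonormal_eigenbasis (E := V) (ι := Unit)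
    (fun _ => ρ y) (fun i j => Commute.refl _)
    (fun i => ⟨p, hp.ne', by rw [← map_pow, hy, map_one]⟩)
    (fun i u v => hc _ u v)
  have hμ1 : ∀ k j, ρ (y ^ k) (b j) = (μ j ()) ^ k • b j := by
    intro k j
    induction k with
    | zero => simp
    | succ k ih =>
      rw [pow_succ, map_mul, Module.End.mul_apply, hμ j (), map_smul, ih, smul_smul, pow_succ,
        mul_comm]
  have hb0 : ∀ j, b j ≠ 0 := fun j => b.orthonormal.ne_zero j
  have hroot : ∀ j, μ j () ^ p = 1 := by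
    intro j
    have h4 := hμ1 p j
    rw [hy, map_one, Module.End.one_apply] at h4
    have h5 : (μ j () ^ p - 1) • b j = 0 := by rw [sub_smul, ← h4, one_smul, sub_self]
    rcases smul_eq_zero.mp h5 with h6 | h6
    · exact sub_eq_zero.mp h6
    · exact absurd h6 (hb0 j)
  have hsum : ∀ k : ℕ, ∑ j, (μ j ()) ^ k = p * ω ^ k + m := by
    intro k
    rw [← h k]
    symm
    apply character_of_basis ρ b.toBasis
    intro j
    rw [b.coe_toBasis]
    exact hμ1 k j
  have hF := (fourier (fun j => μ j ()) hp hroot hω hω1 m hsum).1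
  apply Cfsg.Agent.Lin.near_of_diag b (ρ y) (fun j => μ j ()) ((1 + ω) / 2) (fun j => hμ j ())
  intro j
  rcases hF j with h4 | h4
  · have h5 : μ j () - (1 + ω) / 2 = -((ω - 1) / 2) := by
      have : μ j () = 1 := h4
      rw [this]; ring
    rw [h5, norm_neg, norm_div]
    norm_num
    linarith
  · have h5 : μ j () - (1 + ω) / 2 = ((ω - 1) / 2) := by
      have : μ j () = ω := h4
      rw [this]; ring
    rw [h5, norm_div]
    norm_num
    linarith

end Rep

theorem exists_central {G : Type u} [Group G] [Finite G] {χ : G → ℂ} (hχ : IsCharacter G χ)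
    (hfaith : ∀ g : G, χ g = χ 1 → g = 1) (n : ℕ) (hn : χ 1 = n) (p : ℕ) [hp : Fact p.Prime]
    (hn2 : n < 2 * p) (P : Subgroup G) (hP : IsPGroup p P)
    (hnab : ∃ x ∈ P, ∃ y ∈ P, x * y ≠ y * x) :
    p ≤ n ∧ ∃ (z : G) (ω : ℂ), z ^ p = 1 ∧ ω ^ p = 1 ∧ ω ≠ 1 ∧
      ∀ k : ℕ, χ (z ^ k) = p * ω ^ k + (n - p : ℕ) := by
  classical
  have := Fintype.ofFinite G
  have := Fintype.ofFinite P
  have hfin : Fintype (IrrCharacter P) := Fintype.ofFinite _
  have hpp : p.Prime := hp.out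
  -- central element in the commutator subgroup
  have hcne : commutator P ≠ ⊥ := by
    intro h
    obtain ⟨x, hx, y, hy, hxy⟩ := hnab
    apply hxy
    have h1 : ⁅(⟨x, hx⟩ : P), (⟨y, hy⟩ : P)⁆ ∈ commutator P :=
      Subgroup.commutator_mem_commutator (Subgroup.mem_top _) (Subgroup.mem_top _)
    rw [h, Subgroup.mem_bot, commutatorElement_eq_one_iff_mul_comm] at h1
    exact congrArg Subtype.val h1
  have h1 := Cfsg.Agent.H63.inf_center_ne_bot hP (commutator P) hcne
  obtain ⟨z0, hz0, hz01⟩ : ∃ z0 : P, z0 ∈ commutator P ⊓ Subgroup.center P ∧ z0 ≠ 1 := by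
    by_contra hcon
    push Not at hcon
    exact h1 (eq_bot_iff.mpr fun w hw => Subgroup.mem_bot.mpr (hcon w hw))
  obtain ⟨a, ha⟩ := (IsPGroup.iff_orderOf.mp hP) z0
  have ha0 : a ≠ 0 := by
    rintro rfl
    rw [pow_zero, orderOf_eq_one_iff] at ha
    exact hz01 ha
  obtain ⟨a', rfl⟩ := Nat.exists_eq_succ_of_ne_zero ha0
  set z : P := z0 ^ p ^ a' with hz
  have hzo : orderOf z = p := by
    rw [hz, orderOf_pow_of_dvd (pow_ne_zero _ hpp.ne_zero) (by rw [ha]; exact pow_dvd_pow p (Nat.le_succ a')), ha,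
      Nat.pow_succ, Nat.mul_div_cancel_left _ (pow_pos hpp.pos a')]
  have hzmem : z ∈ commutator P ⊓ Subgroup.center P := Subgroup.pow_mem _ hz0 _
  have hz1 : z ≠ 1 := by
    intro h
    rw [h, orderOf_one] at hzo
    exact hpp.one_lt.ne hzo
  -- decomposition
  set φ : P → ℂ := fun u => χ u with hφ
  have hφc : IsCharacter P φ := isCharacter_restrict hχ P
  obtain ⟨k, hk, hsum⟩ := exists_mult_of_isCharacter hφc
  choose deg hdeg using fun ξ : IrrCharacter P => exists_nat_degree (irr_isCharacter ξ)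
  have hdegp : ∀ ξ, ∃ i, deg ξ = p ^ i := by
    intro ξ
    have h2 := degree_dvd_card ξ.2 (hdeg ξ)
    obtain ⟨N, hN⟩ := hP.exists_card_eq
    rw [hN] at h2
    obtain ⟨i, -, hi⟩ := (Nat.dvd_prime_pow hpp).mp h2
    exact ⟨i, hi⟩
  have hval : ∀ g : P, φ g = ∑ ξ, (k ξ : ℂ) * (ξ : P → ℂ) g := by
    intro g
    rw [hsum, Finset.sum_apply]
    refine Finset.sum_congr rfl fun ξ _ => ?_
    rw [Pi.smul_apply, nsmul_eq_mul]
  have hnsum : n = ∑ ξ, k ξ * deg ξ := by
    have h2 := hval 1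
    have h3 : φ 1 = n := by rw [hφ]; simpa using hn
    rw [h3] at h2
    have h4 : (n : ℂ) = ((∑ ξ, k ξ * deg ξ : ℕ) : ℂ) := by
      rw [h2]; push_cast
      exact Finset.sum_congr rfl fun ξ _ => by rw [hdeg]
    exact_mod_cast h4
  have hlin : ∀ ξ : IrrCharacter P, deg ξ = 1 → ∀ i : ℕ, (ξ : P → ℂ) (z ^ i) = 1 := by
    intro ξ hξ i
    apply Cfsg.Agent.H79.linear_of_mem_commutator (irr_isCharacter ξ)
    · rw [hdeg, hξ, Nat.cast_one]
    · exact Subgroup.pow_mem _ (Subgroup.mem_inf.mp hzmem).1 i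
  obtain ⟨θ, hθk, hθd⟩ : ∃ θ, k θ ≠ 0 ∧ deg θ ≠ 1 := by
    by_contra hcon
    push Not at hcon
    apply hz1
    apply Subtype.ext
    apply hfaith
    have h2 : φ z = φ 1 := by
      rw [hval, hval]
      refine Finset.sum_congr rfl fun ξ _ => ?_
      by_cases hξ : k ξ = 0
      · rw [hξ]; simp
      · have := hlin ξ (hcon ξ hξ) 1
        rw [pow_one] at this
        rw [this, hdeg, hcon ξ hξ, Nat.cast_one]
    exact h2
  obtain ⟨i, hi⟩ := hdegp θ
  have hi0 : i ≠ 0 := by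
    rintro rfl
    exact hθd (by rw [hi, pow_zero])
  have hpi : p ≤ deg θ := by
    rw [hi]
    calc p = p ^ 1 := (pow_one p).symm
      _ ≤ p ^ i := Nat.pow_le_pow_right hpp.pos (Nat.one_le_iff_ne_zero.mpr hi0)
  have hsplit : n = k θ * deg θ + ∑ ξ ∈ Finset.univ.erase θ, k ξ * deg ξ := by
    rw [hnsum]
    exact (Finset.add_sum_erase _ (fun ξ => k ξ * deg ξ) (Finset.mem_univ θ)).symm
  have hkle : k θ * deg θ ≤ n := by omega
  have hk1 : k θ = 1 := by
    by_contra hne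
    have : 2 ≤ k θ := by omega
    have : 2 * p ≤ k θ * deg θ := Nat.mul_le_mul this hpi
    omega
  have hdp : deg θ = p := by
    rw [hi]
    by_contra hne
    have : 2 ≤ i := by
      rcases Nat.lt_or_ge i 2 with h3 | h3
      · interval_cases i
        · exact absurd rfl hi0
        · exact absurd (pow_one p) hne
      · exact h3
    have h3 : p ^ 2 ≤ p ^ i := Nat.pow_le_pow_right hpp.pos this
    rw [← hi] at h3
    rw [hk1, one_mul] at hkle
    have h4 := hpp.two_le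
    nlinarith
  rw [hk1, hdp, one_mul] at hsplit
  have hother : ∀ ξ ∈ Finset.univ.erase θ, k ξ = 0 ∨ deg ξ = 1 := by
    intro ξ hξ
    by_contra hcon
    push Not at hcon
    have h2 : k ξ * deg ξ ≤ ∑ ξ ∈ Finset.univ.erase θ, k ξ * deg ξ :=
      Finset.single_le_sum (f := fun ξ => k ξ * deg ξ) (fun _ _ => Nat.zero_le _) hξ
    obtain ⟨j, hj⟩ := hdegp ξ
    have hj0 : j ≠ 0 := by
      rintro rfl
      exact hcon.2 (by rw [hj, pow_zero])
    have h3 : p ≤ deg ξ := by
      rw [hj]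
      calc p = p ^ 1 := (pow_one p).symm
        _ ≤ p ^ j := Nat.pow_le_pow_right hpp.pos (Nat.one_le_iff_ne_zero.mpr hj0)
    have h4 : 1 ≤ k ξ := Nat.one_le_iff_ne_zero.mpr hcon.1
    have h5 : p ≤ k ξ * deg ξ := by nlinarith
    omega
  set zc : Subgroup.center P := ⟨z, (Subgroup.mem_inf.mp hzmem).2⟩ with hzc
  set ω : ℂ := centHom θ zc with hω
  have hθz : ∀ j : ℕ, (θ : P → ℂ) (z ^ j) = p * ω ^ j := by
    intro j
    have h2 := char_center θ (zc ^ j)
    rw [map_pow, hdeg, hdp] at h2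
    exact h2
  have hzp : z ^ p = 1 := by rw [← hzo]; exact pow_orderOf_eq_one z
  have hωp : ω ^ p = 1 := by
    rw [hω, ← map_pow]
    have : zc ^ p = 1 := Subtype.ext (by simpa [hzc] using hzp)
    rw [this, map_one]
  have hχz : ∀ j : ℕ, χ ((z : G) ^ j) = p * ω ^ j + (n - p : ℕ) := by
    intro j
    have h2 : χ ((z : G) ^ j) = φ (z ^ j) := by rw [hφ]; simp
    rw [h2, hval, ← Finset.add_sum_erase _ (fun ξ => (k ξ : ℂ) * (ξ : P → ℂ) (z ^ j))
      (Finset.mem_univ θ)]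
    simp only [hk1, hθz, Nat.cast_one, one_mul]
    congr 1
    have h3 : ∑ ξ ∈ Finset.univ.erase θ, (k ξ : ℂ) * (ξ : P → ℂ) (z ^ j)
        = ((∑ ξ ∈ Finset.univ.erase θ, k ξ * deg ξ : ℕ) : ℂ) := by
      push_cast
      refine Finset.sum_congr rfl fun ξ hξ => ?_
      rcases hother ξ hξ with h4 | h4
      · rw [h4]; simp
      · rw [hlin ξ h4 j, h4, Nat.cast_one]
    rw [h3]
    congr 1
    omega
  refine ⟨by omega, z, ω, by exact_mod_cast congrArg Subtype.val hzp, hωp, ?_, hχz⟩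
  intro hω1
  apply hz1
  apply Subtype.ext
  apply hfaith
  have h2 := hχz 1
  rw [pow_one, hω1, one_pow, mul_one] at h2
  rw [h2]
  have h3 : χ ((1 : P) : G) = n := by simpa using hn
  change _ = χ 1
  rw [hn, ← Nat.cast_add]
  congr 1
  omega

end Cfsg.Agent.BLP
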